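import Cfsg.Agent.H14.Chain2
import Cfsg.Agent.H49.SylowOf
import Cfsg.Prelude.Def_CaseTheorems

/-!
Homomorphisms to permutation groups from an invariant family of objects; orbit counts;
normal forms in polycyclic 3-groups.
-/

set_option autoImplicit false

namespace Cfsg.Agent.H91

open Subgroup Cfsg.Agent.H14 Cfsg.Agent.H49

section fam

variable {G T ι : Type*} [Group G] [Finite ι] (act : G → T → T) (h1 : ∀ t, act 1 t = t)
  (hm : ∀ g h t, act (g * h) t = act g (act h t)) (f : ι → T) (hf : Function.Injective f)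

include h1 hm in
theorem act_inj (g : G) : Function.Injective (act g) := fun a b e => by
  rw [← h1 a, ← h1 b, ← inv_mul_cancel g, hm, hm, e]

/-- the elements that permute the family `f` -/
def famStab : Subgroup G where
  carrier := {g | ∀ i, ∃ j, act g (f i) = f j}
  one_mem' i := ⟨i, h1 _⟩
  mul_mem' {a b} ha hb i := by
    obtain ⟨j, hj⟩ := hb i
    obtain ⟨l, hl⟩ := ha j
    exact ⟨l, by rw [hm, hj, hl]⟩
  inv_mem' {a} ha i := by
    choose s hs using ha
    have h2 : Function.Injective s := fun i j e =>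
      hf (act_inj act h1 hm a (by rw [hs, hs, e]))
    obtain ⟨j, rfl⟩ := Finite.surjective_of_injective h2 i
    exact ⟨j, by rw [← hs, ← hm, inv_mul_cancel, h1]⟩

include h1 hm hf in
theorem exists_hom_fam (K : Subgroup G) (hK : ∀ g ∈ K, ∀ i, ∃ j, act g (f i) = f j) :
    ∃ ρ : K →* Equiv.Perm ι, ∀ (g : K) (i j : ι), ρ g i = j ↔ act g (f i) = f j := by
  choose s hs using hK
  have h2 : ∀ g : K, Function.Bijective (s g g.2) := fun g =>
    Finite.injective_iff_bijective.1 fun i j e =>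
      hf (act_inj act h1 hm g (by rw [hs g g.2, hs g g.2, e]))
  refine ⟨MonoidHom.mk' (fun g => Equiv.ofBijective _ (h2 g)) fun a b => Equiv.ext fun i => hf ?_,
    fun g i j => ?_⟩
  · show f (s _ _ i) = f (s _ _ (s _ _ i))
    rw [← hs, ← hs, ← hs, ← hm]; rfl
  · show s _ _ i = j ↔ _
    rw [hs g g.2]; exact hf.eq_iff.symm

end fam

section orb

variable {Γ α : Type*} [Group Γ] (ρ : Γ →* Equiv.Perm α)

/-- the stabiliser of a point -/
def stb (b : α) : Subgroup Γ := (MulAction.stabilizer (Equiv.Perm α) b).comap ρ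

theorem mem_stb {b : α} {g : Γ} : g ∈ stb ρ b ↔ ρ g b = b := Iff.rfl

theorem card_eq_orb_mul (H : Subgroup Γ) (b : α) :
    Nat.card H = {a | ∃ g ∈ H, ρ g b = a}.ncard * Nat.card ↥(H ⊓ stb ρ b) := by
  let _ : MulAction Γ α := MulAction.compHom α ρ
  exact card_eq_orbit_mul H b

theorem card_le_of_orb [Finite α] (H : Subgroup Γ) (b : α) (S : Set α) (h : ∀ g ∈ H, ρ g b ∈ S) :
    Nat.card H ≤ S.ncard * Nat.card ↥(H ⊓ stb ρ b) := by
  rw [card_eq_orb_mul ρ H b]
  exact Nat.mul_le_mul_right _ (Set.ncard_le_ncard (by rintro _ ⟨g, hg, rfl⟩; exact h g hg))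

theorem le_card_of_orb [Finite α] (H : Subgroup Γ) (b : α) (S : Set α)
    (h : ∀ a ∈ S, ∃ g ∈ H, ρ g b = a) : S.ncard * Nat.card ↥(H ⊓ stb ρ b) ≤ Nat.card H := by
  rw [card_eq_orb_mul ρ H b]
  exact Nat.mul_le_mul_right _ (Set.ncard_le_ncard h)

/-- three different points have few triples of images -/
theorem card_le_three {n : ℕ} (ρ : Γ →* Equiv.Perm (Fin (n + 3))) :
    Nat.card Γ ≤ (n + 3) * ((n + 2) * ((n + 1) *
      Nat.card ↥(((⊤ ⊓ stb ρ 0) ⊓ stb ρ 1) ⊓ stb ρ 2))) := by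
  have c0 : (Set.univ : Set (Fin (n + 3))).ncard = n + 3 := by simp [Set.ncard_univ]
  have n01 : (0 : Fin (n + 3)) ≠ 1 := by simp
  have n2 : 2 % (n + 3) = 2 := Nat.mod_eq_of_lt (by omega)
  have n02 : (0 : Fin (n + 3)) ≠ 2 := by simp [Fin.ext_iff, n2]
  have n12 : (1 : Fin (n + 3)) ≠ 2 := by simp [Fin.ext_iff, n2]
  have c1 : ({0}ᶜ : Set (Fin (n + 3))).ncard = n + 2 := by
    have := Set.ncard_add_ncard_compl ({0} : Set (Fin (n + 3)))
    rw [Set.ncard_singleton, Nat.card_fin] at this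
    omega
  have c2 : ({0, 1}ᶜ : Set (Fin (n + 3))).ncard = n + 1 := by
    have := Set.ncard_add_ncard_compl ({0, 1} : Set (Fin (n + 3)))
    rw [Set.ncard_pair n01, Nat.card_fin] at this
    omega
  have h0 := card_le_of_orb ρ ⊤ 0 Set.univ fun _ _ => trivial
  have h1 := card_le_of_orb ρ (⊤ ⊓ stb ρ 0) 1 {0}ᶜ fun g hg e =>
    n01 ((ρ g).injective (hg.2.trans (Set.mem_singleton_iff.1 e).symm))
  have h2 := card_le_of_orb ρ ((⊤ ⊓ stb ρ 0) ⊓ stb ρ 1) 2 {0, 1}ᶜ fun g hg e => by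
    rcases e with e | e
    · exact n02 ((ρ g).injective (hg.1.2.trans e.symm))
    · exact n12 ((ρ g).injective (hg.2.trans (Set.mem_singleton_iff.1 e).symm))
  rw [c0, card_top] at h0
  rw [c1] at h1
  rw [c2] at h2
  exact h0.trans (Nat.mul_le_mul_left _ (h1.trans (Nat.mul_le_mul_left _ h2)))

end orb

section grow

/-- grow a mask by the packed permutations `Ps`, in the order given by `sched` -/
noncomputable def grow (k M n : ℕ) (Ps sched : List ℕ) : ℕ → ℕ :=
  List.rec (motive := fun _ => ℕ → ℕ) (fun R => R)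
    (fun i _ ih R => force (Nat.lor R (img k M n (nthD Ps (idP k n) i) R)) ih) sched

variable {α : Type*} {n k M : ℕ} {E : Enc α n k M}

theorem grow_sound {H : Subgroup (Equiv.Perm α)} {Ps : List ℕ} (hP : ∀ P ∈ Ps, E.InG H P) (b : α)
    (sched : List ℕ) {R : ℕ} (hR : ∀ a, R.testBit (E.ix a) = true → ∃ g ∈ H, g b = a) :
    ∀ a, (grow k M n Ps sched R).testBit (E.ix a) = true → ∃ g ∈ H, g b = a := by
  induction sched generalizing R with
  | nil => exact hR
  | cons i s ih =>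
    have e : grow k M n Ps (i :: s) R =
      force (Nat.lor R (img k M n (nthD Ps (idP k n) i) R)) (grow k M n Ps s) := rfl
    rw [e, force_eq]
    refine ih fun a ha => ?_
    have ha' : (R ||| img k M n (nthD Ps (idP k n) i) R).testBit (E.ix a) = true := ha
    rw [Nat.testBit_or, Bool.or_eq_true] at ha'
    rcases ha' with h | h
    · exact hR a h
    · obtain ⟨j, hj, h1, h2⟩ := (testBit_img _ _ _ _ _ _).1 h
      obtain ⟨g, hg, e1⟩ := Enc.inG_nthD hP i
      obtain ⟨u, hu, e2⟩ := hR (E.pt j) (by rw [E.ix_pt j hj]; exact h1)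
      refine ⟨g * u, H.mul_mem hg hu, E.ix_injective ?_⟩
      rw [Equiv.Perm.mul_apply, e2, ← E.app_pk_of_lt g hj, e1, h2]

theorem le_ncard_of_grow [Fintype α] {H : Subgroup (Equiv.Perm α)} {Ps : List ℕ}
    (hP : ∀ P ∈ Ps, E.InG H P) {b : ℕ} {sched : List ℕ} {c : ℕ}
    (h : cntN n (tb (grow k M n Ps sched (2 ^ b))) = c) :
    c ≤ {a | ∃ g ∈ H, g (E.pt b) = a}.ncard := by
  rw [← h, ← E.card_bits, ← Set.ncard_coe_finset]
  refine Set.ncard_le_ncard fun a ha => grow_sound hP _ sched (fun a h => ⟨1, H.one_mem, ?_⟩) a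
    (E.mem_bits.1 ha)
  rw [Nat.testBit_two_pow, decide_eq_true_iff] at h
  rw [h, E.pt_ix]; rfl

end grow

section pc

variable {G : Type*} [Group G]

theorem pc_step {H : Subgroup G} {x : G} (hx : x ^ 3 = 1) (hn : x ∈ 𝒩(H)) {g : G}
    (hg : g ∈ H ⊔ zpowers x) : ∃ h ∈ H, ∃ l < 3, g = h * x ^ l := by
  obtain ⟨h, hh, y, hy, rfl⟩ := (mem_sup_of_norm_left (zpowers_le.2 hn)).1 hg
  obtain ⟨z, rfl⟩ := mem_zpowers_iff.1 hy
  refine ⟨h, hh, (z % 3).toNat, by omega, ?_⟩
  rw [← zpow_natCast, Int.toNat_of_nonneg (by omega), zpow_eq_zpow_emod z (n := 3)]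
  exact_mod_cast hx

theorem card_pc_step [Finite G] {H : Subgroup G} {x : G} (hx : x ^ 3 = 1) (hn : x ∈ 𝒩(H)) :
    Nat.card ↥(H ⊔ zpowers x) ≤ Nat.card H * 3 := by
  have : Nat.card ↥(H ⊔ zpowers x) ≤ Nat.card (H × Fin 3) := by
    refine Nat.card_le_card_of_surjective (fun p : H × Fin 3 => (⟨p.1 * x ^ p.2.val,
      mul_mem (mem_sup_left p.1.2) (mem_sup_right (npow_mem_zpowers x _))⟩ : ↥(H ⊔ zpowers x))) ?_
    rintro ⟨g, hg⟩
    obtain ⟨h, hh, l, hl, rfl⟩ := pc_step hx hn hg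
    exact ⟨(⟨h, hh⟩, ⟨l, hl⟩), rfl⟩
  simpa using this

theorem zpowers_sq_three {x : G} (hx : x ^ 3 = 1) : zpowers (x * x) = zpowers x := by
  refine le_antisymm (zpowers_le.2 (mul_mem (mem_zpowers x) (mem_zpowers x))) (zpowers_le.2 ?_)
  have : x = (x * x) * (x * x) := by
    rw [show x * x * (x * x) = x ^ 3 * x by simp only [pow_succ, pow_zero, one_mul, mul_assoc], hx,
      one_mul]
  have h := mul_mem (mem_zpowers (x * x)) (mem_zpowers (x * x))
  rwa [← this] at h

end pc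

/-- a central extension of a non-abelian simple group by a group of exponent three that is
generated by involutions is quasisimple -/
theorem quasisimple_of_hom {C S : Type*} [Group C] [Group S] [IsSimpleGroup S]
    (hS : ¬ IsMulCommutative S) (ρ : C →* S) (hs : Function.Surjective ρ)
    (hZ : ρ.ker ≤ center C) (h3 : ∀ y ∈ ρ.ker, y ^ 3 = 1)
    (hg : closure {c : C | c * c = 1} = ⊤) : IsQuasisimple C := by
  have hc : center C = ρ.ker := by
    refine le_antisymm ?_ hZ
    rcases (Normal.map (inferInstance : (center C).Normal) ρ hs).eq_bot_or_eq_top with h | h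
    · exact (Subgroup.map_eq_bot_iff _).1 h
    · refine absurd ⟨⟨fun a b => ?_⟩⟩ hS
      obtain ⟨z, hz, rfl⟩ : a ∈ (center C).map ρ := h ▸ mem_top a
      obtain ⟨c, rfl⟩ := hs b
      rw [← map_mul, ← map_mul, mem_center_iff.1 hz c]
  refine ⟨⟨?_⟩, ?_⟩
  · have h1 : (commutator C).map ρ = ⊤ := by
      rcases (Normal.map (inferInstance : (commutator C).Normal) ρ hs).eq_bot_or_eq_top with h | h
      · refine absurd ⟨⟨fun a b => ?_⟩⟩ hS
        obtain ⟨a, rfl⟩ := hs a
        obtain ⟨b, rfl⟩ := hs b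
        have := (Subgroup.map_eq_bot_iff _).1 h (commutator_mem_commutator (mem_top a) (mem_top b))
        rw [MonoidHom.mem_ker, map_commutatorElement, commutatorElement_eq_one_iff_mul_comm] at this
        exact this
      · exact h
    rw [eq_top_iff, ← hg, closure_le]
    intro c hc2
    obtain ⟨d, hd, e⟩ : ρ c ∈ (commutator C).map ρ := h1 ▸ mem_top _
    have h2 : d⁻¹ * c ∈ ρ.ker := by rw [MonoidHom.mem_ker, map_mul, map_inv, e, inv_mul_cancel]
    have h4 := h3 _ h2
    have h5 := mem_center_iff.1 (hZ h2) d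
    have h6 : c ^ 3 = d ^ 3 := by
      calc c ^ 3 = (d * (d⁻¹ * c)) ^ 3 := by rw [mul_inv_cancel_left]
        _ = _ := by rw [Commute.mul_pow h5, h4, mul_one]
    have h7 : c = c ^ 3 := by
      have h8 : c * c = 1 := hc2
      rw [pow_succ, pow_two, h8, one_mul]
    rw [SetLike.mem_coe, h7, h6]
    exact pow_mem hd 3
  · exact ((QuotientGroup.quotientMulEquivOfEq hc).trans
      (QuotientGroup.quotientKerEquivOfSurjective ρ hs)).isSimpleGroup

end Cfsg.Agent.H91
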