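import Cfsg.Agent.H55.ActNet
import Cfsg.Agent.H80.SylNet

/-!
Named elements of a network model given by lookup tables: words are evaluated on single points.
-/

set_option autoImplicit false

namespace Cfsg.Agent.H91.Tab

open Cfsg.Agent.H14 Cfsg.Agent.H55 Cfsg.Agent.H58

section defs

/-- the image of the point `i` under a word in the tables -/
noncomputable def run (k m : ℕ) (Ts w : List ℕ) (i : ℕ) : ℕ :=
  List.rec (motive := fun _ => ℕ) i (fun x _ ih => lk1 k m (nth Ts x) ih) w

/-- all letters are below `n` -/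
noncomputable def ltAll (n : ℕ) (w : List ℕ) : Bool := allL w fun x => Nat.blt x n

/-- two words agree on the points of `B` -/
noncomputable def eqW (k m : ℕ) (Ts B : List ℕ) (n : ℕ) (w w' : List ℕ) : Bool :=
  ltAll n w && ltAll n w' && allL B fun b => Nat.beq (run k m Ts w b) (run k m Ts w' b)

/-- pairs of words agree on the points of `B` -/
noncomputable def eqsW (k m : ℕ) (Ts B : List ℕ) (n : ℕ) (ps : List (List ℕ × List ℕ)) : Bool :=
  allL ps fun p => eqW k m Ts B n p.1 p.2

/-- the table number `n` is the table of the word `w` -/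
noncomputable def defOK (k m : ℕ) (Ts : List ℕ) (a b n : ℕ) (w : List ℕ) : Bool :=
  ltAll n w && all2 a b fun i => Nat.beq (lk1 k m (nth Ts n) i) (run k m Ts w i)

/-- `R` is the mask of the fixed points of the word `w` -/
noncomputable def fixOK (k m : ℕ) (Ts : List ℕ) (a b n : ℕ) (w : List ℕ) (R : ℕ) : Bool :=
  ltAll n w && Nat.beq (Nat.shiftRight R (Nat.mul a b)) (nat_lit 0) && all2 a b fun i =>
    force i fun j => Bool.rec (!tb R j) (tb R j) (Nat.beq (run k m Ts w j) j)

/-- the mask of a list -/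
noncomputable def orL (l : List ℕ) : ℕ :=
  List.rec (nat_lit 0) (fun p _ ih => Nat.lor ih (Nat.shiftLeft (nat_lit 1) p)) l

/-- the list has at least `n` different members below `2 ^ b` -/
noncomputable def many (b n : ℕ) (l : List ℕ) : Bool := force (orL l) fun R => Nat.ble n (cnt b R)

theorem ltAll_iff {n : ℕ} {w : List ℕ} : ltAll n w = true ↔ ∀ x ∈ w, x < n := by
  simp [ltAll, allL_iff]

theorem mem_of_orL {l : List ℕ} {p : ℕ} (h : (orL l).testBit p = true) : p ∈ l := by
  rw [← tb_eq] at h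
  induction l with
  | nil => rw [tb_eq] at h; exact absurd h (by simp [orL])
  | cons a l ih =>
    rcases (AM.tb_lor (orL l) a p).1 h with h1 | h1
    · exact List.mem_cons_of_mem _ (ih h1)
    · rw [h1]; exact List.mem_cons_self

theorem le_ncard_of_many {b n : ℕ} {l : List ℕ} (h : many b n l = true) {S : Set ℕ} (hS : S.Finite)
    (hl : ∀ x ∈ l, x ∈ S) : n ≤ S.ncard := by
  rw [many, force_eq, ble_iff, cnt_eq] at h
  refine h.trans ?_
  rw [← Set.ncard_coe_finset]
  exact Set.ncard_le_ncard (fun x hx => hl x (mem_of_orL (Finset.mem_filter.1 hx).2)) hS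

end defs

variable {G : Type*} [Group G] (M : Model G) (N k m : ℕ) (Ts : List ℕ)

open Classical in
/-- the element with a given table -/
noncomputable def elt (T : ℕ) : G :=
  if h : ∃ g, (netAM M N).Fn g (lk1 k m T) then h.choose else 1

/-- the letters -/
noncomputable def E (x : ℕ) : G := elt M N k m (nth Ts x)

/-- the first `n` tables are tables of elements -/
def Good (n : ℕ) : Prop := ∀ x < n, (netAM M N).Fn (E M N k m Ts x) (lk1 k m (nth Ts x))

variable {M N k m Ts} {B : List ℕ} {n : ℕ}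

theorem good_zero : Good M N k m Ts 0 := fun _ h => absurd h (Nat.not_lt_zero _)

theorem Good.step_fn (hB : (netAM M N).IsBase B) (h : Good M N k m Ts n) {g : G}
    (hg : (netAM M N).Fn g (lk1 k m (nth Ts n))) : Good M N k m Ts (n + 1) ∧ E M N k m Ts n = g := by
  have h1 : ∃ g, (netAM M N).Fn g (lk1 k m (nth Ts n)) := ⟨g, hg⟩
  have h2 : E M N k m Ts n = g := by
    rw [E, elt, dif_pos h1]; exact hB.uniq h1.choose_spec hg
  refine ⟨fun x hx => ?_, h2⟩
  rcases Nat.lt_succ_iff_lt_or_eq.1 hx with hx | rfl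
  · exact h x hx
  · rw [h2]; exact hg

theorem Good.fn_run (h : Good M N k m Ts n) {w : List ℕ} (hw : ltAll n w = true) :
    (netAM M N).Fn (wv (E M N k m Ts) w) (run k m Ts w) := by
  rw [ltAll_iff] at hw
  induction w with
  | nil => exact AM.Fn.one
  | cons x w ih =>
    exact (h x (hw x List.mem_cons_self)).mul (ih fun y hy => hw y (List.mem_cons_of_mem _ hy))

theorem Good.φ_run (h : Good M N k m Ts n) {w : List ℕ} (hw : ltAll n w = true) {i : ℕ}
    (hi : i < N) : M.φ (wv (E M N k m Ts) w) i = run k m Ts w i := (h.fn_run hw).smul hi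

theorem Good.eqW (hB : (netAM M N).IsBase B) (h : Good M N k m Ts n) {w w' : List ℕ}
    (e : eqW k m Ts B n w w' = true) : wv (E M N k m Ts) w = wv (E M N k m Ts) w' := by
  simp only [Tab.eqW, Bool.and_eq_true] at e
  exact hB.eq (h.fn_run e.1.1) (h.fn_run e.1.2) e.2

theorem Good.eqsW (hB : (netAM M N).IsBase B) (h : Good M N k m Ts n)
    {ps : List (List ℕ × List ℕ)} (e : eqsW k m Ts B n ps = true) :
    ∀ p ∈ ps, wv (E M N k m Ts) p.1 = wv (E M N k m Ts) p.2 := fun p hp =>
  h.eqW hB (allL_iff.1 e p hp)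

theorem Good.step (hB : (netAM M N).IsBase B) (h : Good M N k m Ts n) {a b : ℕ} (hN : N = a * b)
    {w : List ℕ} (e : defOK k m Ts a b n w = true) :
    Good M N k m Ts (n + 1) ∧ E M N k m Ts n = wv (E M N k m Ts) w := by
  simp only [defOK, Bool.and_eq_true, all2_iff, beq_iff] at e
  exact h.step_fn hB ((h.fn_run e.1).congr fun i hi => e.2 i (hN ▸ hi))

theorem Good.step_net (hB : (netAM M N).IsBase B) (h : Good M N k m Ts n) (hN : M.N = N) {b s : ℕ}
    (hb : N ≤ 2 ^ b) {x c : ℕ}
    (e1 : netLeafOK (lk1 k m) s (2 ^ s - 1) (2 ^ 2 ^ s - 1) M.nets [x] N b (nth Ts n) (nth Ts n) 0 c = true)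
    (e2 : netLeafOK (lk1 k m) s (2 ^ s - 1) (2 ^ 2 ^ s - 1) M.nets [x] N b (nth Ts n) (nth Ts n) c c = true)
    (hc : N = c + c) : Good M N k m Ts (n + 1) ∧ E M N k m Ts n = M.el x := by
  have h1 := (nleafOn_zero.step e1).step (by rw [zero_add]; exact e2)
  rw [zero_add, ← hc] at h1
  have h2 := (h1.fn (fn_planes M hN hb [x] s)).1
  rw [show wv M.el [x] = M.el x by simp [wv]] at h2
  exact h.step_fn hB h2

theorem Good.fixOK (h : Good M N k m Ts n) {a b : ℕ} (hN : N = a * b) {w : List ℕ} {R : ℕ}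
    (e : fixOK k m Ts a b n w R = true) (j : ℕ) :
    R.testBit j = true ↔ j < N ∧ M.φ (wv (E M N k m Ts) w) j = j := by
  simp only [Tab.fixOK, Bool.and_eq_true, all2_iff, beq_iff, force_eq] at e
  obtain ⟨⟨e1, e2⟩, e3⟩ := e
  by_cases hj : j < N
  · have := e3 j (hN ▸ hj)
    rw [h.φ_run e1 hj, ← tb_eq, ← beq_iff (b := j)]
    revert this
    cases Nat.beq (run k m Ts w j) j <;> cases tb R j <;> simp [hj]
  · have e4 : R >>> N = 0 := hN ▸ e2
    have : R.testBit j = false := by
      rw [show j = N + (j - N) by omega, ← Nat.testBit_shiftRight, e4, Nat.zero_testBit]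
    simp [this, hj]

theorem ncard_orb_le [Finite G] (K : Subgroup G) (p : ℕ) : (M.orb K p).ncard ≤ Nat.card K := by
  rw [← H80.orb_mul_card M K p]
  exact Nat.le_mul_of_pos_right _ Nat.card_pos

theorem wv_append (e : ℕ → G) (u v : List ℕ) : wv e (u ++ v) = wv e u * wv e v := by
  simp [wv]

theorem wv_rep (e : ℕ → G) (c x : ℕ) : wv e (List.replicate c x) = e x ^ c := by
  simp [wv]

theorem wv_reverse {e : ℕ → G} {w : List ℕ} (h : ∀ x ∈ w, e x * e x = 1) :
    wv e w.reverse = (wv e w)⁻¹ := by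
  induction w with
  | nil => simp [wv]
  | cons x w ih =>
    rw [List.reverse_cons, wv_append, ih fun y hy => h y (List.mem_cons_of_mem _ hy)]
    simp only [wv, List.map_cons, List.map_nil, List.prod_cons, List.prod_nil, mul_one, mul_inv_rev]
    rw [inv_eq_of_mul_eq_one_right (h x List.mem_cons_self)]

end Cfsg.Agent.H91.Tab
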